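import Cfsg.Agent.OddChar.DadeVirtual
import Cfsg.Agent.Exceptional.TICoverFam

/-!
# Consequences of the Dade map
-/

set_option autoImplicit false
set_option linter.style.haveILetI false
set_option linter.unusedSectionVars false

namespace CfsgLib.DadeMap

open Cfsg CfsgLib.CharBasics CfsgLib.OddChar CfsgLib.Exceptional
open scoped ComplexConjugate

universe u

variable {G : Type u} [Group G] [Fintype G] {A : Set G} {L : Subgroup G} [Fintype L] {H : G → Subgroup G}

theorem avg_finsum (hD : DadeHypothesis A L H) {a : G} (ha : a ∈ A) [Fintype (H a)] (χ : G → ℂ) :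
    avg (H a) χ a = (Nat.card (H a) : ℂ)⁻¹ * ∑ᶠ u ∈ (H a : Set G), χ (a * u) := by
  rw [avg, ← finsum_set_coe_eq_finsum_mem, finsum_eq_sum_of_fintype]
  congr 1
  exact Fintype.sum_equiv (Equiv.refl _) _ _ fun u =>
    congrArg χ (commute_of_mem_H hD ha u.2).eq.symm

theorem not_inSupp_one (hD : DadeHypothesis A L H) : ¬ InSupp A L H (1 : G) := by
  rintro ⟨a, ha, x, u, hu, e⟩
  rw [mul_one, mul_inv_cancel] at e
  have hm : (a : G) ∈ H (a : G) := by
    have := (H (a : G)).inv_mem hu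
    rwa [← eq_inv_of_mul_eq_one_left e.symm] at this
  have : (a : G) ∈ H (a : G) ⊓ (L ⊓ Subgroup.centralizer ({(a : G)} : Set G)) :=
    ⟨hm, a.2, mem_centralizer_singleton.2 rfl⟩
  rw [hD.inf_eq_bot _ ha, Subgroup.mem_bot] at this
  exact hD.one_not_mem (this ▸ ha)

theorem dade_conjFun (α : L → ℂ) :
    dadeIsometry A L H (conjFun α) = conjFun (dadeIsometry A L H α) := by
  funext g
  simp only [dadeIsometry, conjFun]
  split_ifs <;> simp

theorem dade_neg (α : L → ℂ) : dadeIsometry A L H (-α) = -dadeIsometry A L H α := by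
  funext g
  simp only [dadeIsometry, Pi.neg_apply]
  split_ifs <;> simp

theorem dade_sub_conj (hD : DadeHypothesis A L H) {χ : L → ℂ} (hχ : IsIrrCharacter L χ)
    (hsupp : ∀ x : L, x ≠ 1 → (x : G) ∉ A → χ x = 0) :
    ∃ μ : G → ℂ, IsIrrCharacter G μ ∧ dadeIsometry A L H (χ - conjFun χ) = μ - conjFun μ := by
  classical
  by_cases hreal : conjFun χ = χ
  · refine ⟨fun _ => 1, isIrrCharacter_one, ?_⟩
    funext g
    rw [hreal, sub_self]
    simp [dadeIsometry, conjFun]
  have hχ' : IsIrrCharacter L (conjFun χ) := irr_conjFun hχ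
  set α := χ - conjFun χ with hαdef
  have hgen : IsGeneralizedCharacter L α := ⟨_, _, isCharacter_of_irr hχ, isCharacter_of_irr hχ', rfl⟩
  have hαA : ∀ x : L, (x : G) ∉ A → α x = 0 := fun x hx => by
    by_cases h1 : x = 1
    · subst h1; simp [α, conjFun_apply_one (isCharacter_of_irr hχ)]
    · simp [α, conjFun, hsupp x h1 hx]
  have hn : classInner α α = 2 := by
    rw [hαdef, Exceptional.classInner_sub_left, Exceptional.classInner_sub_right, Exceptional.classInner_sub_right,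
      classInner_self hχ, classInner_self hχ', classInner_ne hχ hχ' (Ne.symm hreal), classInner_ne hχ' hχ hreal]
    norm_num
  have hθg := dade_gen hD hgen hαA
  have hθ2 : classInner (dadeIsometry A L H α) (dadeIsometry A L H α) = 2 := by
    rw [isometry hD (gen_isClassFunction hgen) hαA (gen_isClassFunction hgen), hn]
  obtain ⟨a, b, hab, hθ⟩ := norm_two_cases hθg hθ2 (dade_eq_zero (not_inSupp_one hD))
  have hneg : conjFun α = -α := by funext x; simp [α, conjFun]
  have hc : conjFun (dadeIsometry A L H α) = -dadeIsometry A L H α := by rw [← dade_conjFun, hneg, dade_neg]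
  rw [hθ, conjFun_sub', neg_sub] at hc
  refine ⟨(a : G → ℂ), a.2, ?_⟩
  rw [hθ]
  congr 1
  by_contra hne
  have ha' := irr_conjFun a.2
  have hb' := irr_conjFun b.2
  have hne' : (b : G → ℂ) ≠ a := fun e => hab (Subtype.ext e.symm)
  have := congrArg (fun F => classInner F (b : G → ℂ)) hc
  simp only [Exceptional.classInner_sub_left] at this
  rw [classInner_ne ha' b.2 (fun e => hne e.symm), classInner_self b.2, classInner_ne a.2 b.2 hne'.symm] at this
  by_cases hbb : conjFun (b : G → ℂ) = b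
  · rw [hbb, classInner_self b.2] at this; norm_num at this
  · rw [classInner_ne hb' b.2 hbb] at this; norm_num at this

theorem dade_norm_le (hD : DadeHypothesis A L H) {χ : G → ℂ} (hχ : IsClassFunction G χ) {ψ : L → ℂ}
    (hψ : ∀ a : L, (a : G) ∈ A → ψ a = (Nat.card (H a) : ℂ)⁻¹ * ∑ᶠ u ∈ (H a : Set G), χ (a * u)) :
    (Nat.card L : ℝ)⁻¹ * ∑ᶠ a ∈ {a : L | (a : G) ∈ A}, ‖ψ a‖ ^ 2 ≤
      (Nat.card G : ℝ)⁻¹ * ∑ᶠ g ∈ {g : G | ∃ a ∈ A, ∃ u ∈ H a, ∃ x : G, x * g * x⁻¹ = a * u}, ‖χ g‖ ^ 2 := by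
  classical
  haveI : ∀ a : G, Fintype (H a) := fun a => Fintype.ofFinite _
  let S : Finset L := Finset.univ.filter fun a : L => (a : G) ∈ A
  let T : Finset G := Finset.univ.filter fun g => InSupp A L H g
  have hset : {g : G | ∃ a ∈ A, ∃ u ∈ H a, ∃ x : G, x * g * x⁻¹ = a * u} = ↑T := by
    ext g
    refine ⟨fun ⟨a, ha, u, hu, x, e⟩ => Finset.mem_coe.2
      (Finset.mem_filter.2 ⟨Finset.mem_univ _, ⟨a, hD.subset ha⟩, ha, x, u, hu, e⟩), fun h => ?_⟩
    obtain ⟨a, ha, x, u, hu, e⟩ := (Finset.mem_filter.1 (Finset.mem_coe.1 h)).2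
    exact ⟨a, ha, u, hu, x, e⟩
  have hsetL : {a : L | (a : G) ∈ A} = ↑S := by ext a; simp [S]
  rw [hset, hsetL, finsum_mem_coe_finset, finsum_mem_coe_finset]
  let r : G → ℝ := fun g => if InSupp A L H g then ‖χ g‖ ^ 2 else 0
  have hsum := sum_supp hD (F := fun g => (r g : ℂ)) (fun g x => by simp only [r, inSupp_conj, hχ g x])
    (fun g hg => by simp [r, hg])
  simp only [avg] at hsum
  have hreal : (Nat.card G : ℝ)⁻¹ * ∑ g : G, r g =
      (Nat.card L : ℝ)⁻¹ * ∑ a ∈ S, (Nat.card (H (a : G)) : ℝ)⁻¹ * ∑ u : H (a : G), r ((u : G) * a) := by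
    apply Complex.ofReal_injective
    push_cast
    exact hsum
  rw [show ∑ g ∈ T, ‖χ g‖ ^ 2 = ∑ g : G, r g from by rw [Finset.sum_filter], hreal]
  refine mul_le_mul_of_nonneg_left (Finset.sum_le_sum fun a ha => ?_) (by positivity)
  have ha' : (a : G) ∈ A := (Finset.mem_filter.1 ha).2
  have hr : ∀ u : H (a : G), r ((u : G) * a) = ‖χ ((u : G) * a)‖ ^ 2 := fun u => by
    refine if_pos ⟨a, ha', 1, u, u.2, ?_⟩
    rw [one_mul, inv_one, mul_one, (commute_of_mem_H hD ha' u.2).eq]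
  simp only [hr]
  rw [hψ a ha', ← avg_finsum hD ha', avg, norm_mul, norm_inv, Complex.norm_natCast, mul_pow,
    Nat.card_eq_fintype_card]
  have hn : (0 : ℝ) < Fintype.card (H (a : G)) := Nat.cast_pos.2 Fintype.card_pos
  have hcs := sq_sum_le_card_mul_sum_sq (s := (Finset.univ : Finset (H (a : G)))) (f := fun u => ‖χ ((u : G) * a)‖)
  have hle : ‖∑ u : H (a : G), χ ((u : G) * a)‖ ^ 2 ≤ (∑ u : H (a : G), ‖χ ((u : G) * a)‖) ^ 2 :=
    pow_le_pow_left₀ (norm_nonneg _) (norm_sum_le _ _) 2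
  rw [inv_pow, sq, mul_inv, mul_assoc]
  refine mul_le_mul_of_nonneg_left ((inv_mul_le_iff₀ hn).2 (hle.trans ?_)) (by positivity)
  simpa using hcs

end CfsgLib.DadeMap
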