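import Mathlib
import Cfsg.Agent.OddChar.DadeBasic
import Cfsg.Agent.Exceptional.Virtual

/-!
# The Dade map: values, sums over its support, the averaged adjoint, virtual characters
-/

set_option autoImplicit false
set_option linter.style.haveILetI false
set_option linter.unusedSectionVars false

namespace CfsgLib.DadeMap

open Cfsg CfsgLib.CharBasics CfsgLib.OddChar CfsgLib.Exceptional
open scoped ComplexConjugate Pointwise

universe u

variable {G : Type u} [Group G] [Fintype G] {A : Set G} {L : Subgroup G} [Fintype L] {H : G → Subgroup G}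

/-- The average over the coset of `H a`. -/
noncomputable def avg (K : Subgroup G) [Fintype K] (F : G → ℂ) (a : G) : ℂ :=
  (Nat.card K : ℂ)⁻¹ * ∑ u : K, F ((u : G) * a)

theorem conj_mem_iff (hD : DadeHypothesis A L H) {x : G} (hx : x ∈ L) {a : G} : x * a * x⁻¹ ∈ A ↔ a ∈ A := by
  refine ⟨fun h => ?_, hD.conj_mem x hx a⟩
  have := hD.conj_mem x⁻¹ (inv_mem hx) _ h
  simpa [mul_assoc] using this

/-- The set of points of the support over a given element. -/
def InSupp (A : Set G) (L : Subgroup G) (H : G → Subgroup G) (g : G) : Prop :=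
  ∃ a : L, (a : G) ∈ A ∧ ∃ x : G, ∃ u ∈ H (a : G), x * g * x⁻¹ = (a : G) * u

theorem dade_apply (hD : DadeHypothesis A L H) {α : L → ℂ} (hα : IsClassFunction L α) {g : G} {a : L}
    (ha : (a : G) ∈ A) {x u : G} (hu : u ∈ H (a : G)) (h : x * g * x⁻¹ = (a : G) * u) :
    dadeIsometry A L H α g = α a := by
  have hex : ∃ a : L, (a : G) ∈ A ∧ ∃ x : G, ∃ u ∈ H (a : G), x * g * x⁻¹ = (a : G) * u := ⟨a, ha, x, u, hu, h⟩
  rw [dadeIsometry, dif_pos hex]
  obtain ⟨hb, y, v, hv, hy⟩ := Classical.choose_spec hex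
  generalize Classical.choose hex = b at hb hy hv ⊢
  have e : (y * x⁻¹) * ((a : G) * u) * (y * x⁻¹)⁻¹ = (b : G) * v := by
    rw [← h, ← hy]; simp [mul_assoc]
  have e2 := coset_conj hD ha hb hu hv e
  obtain ⟨l, hl, hl'⟩ := hD.fusion _ ha (y * x⁻¹) (e2 ▸ hb)
  rw [e2] at hl'
  rw [← hα a ⟨l, hl⟩]
  exact congrArg α (Subtype.ext hl'.symm)

theorem dade_eq_zero {α : L → ℂ} {g : G} (h : ¬ InSupp A L H g) : dadeIsometry A L H α g = 0 := by
  rw [dadeIsometry, dif_neg]
  exact h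

theorem dade_coset (hD : DadeHypothesis A L H) {α : L → ℂ} (hα : IsClassFunction L α) {a : L}
    (ha : (a : G) ∈ A) (u : H (a : G)) : dadeIsometry A L H α ((u : G) * a) = α a :=
  dade_apply hD hα ha (x := 1) u.2 (by
    rw [one_mul, inv_one, mul_one]
    exact (commute_of_mem_H hD ha u.2).eq.symm)

theorem inSupp_conj {g : G} (z : G) : InSupp A L H (z * g * z⁻¹) ↔ InSupp A L H g := by
  constructor <;> rintro ⟨a, ha, x, u, hu, h⟩
  · exact ⟨a, ha, x * z, u, hu, by rw [← h]; simp [mul_assoc]⟩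
  · exact ⟨a, ha, x * z⁻¹, u, hu, by rw [← h]; simp [mul_assoc]⟩

theorem dade_isClassFunction (hD : DadeHypothesis A L H) {α : L → ℂ} (hα : IsClassFunction L α) :
    IsClassFunction G (dadeIsometry A L H α) := by
  intro g z
  by_cases h : InSupp A L H g
  · obtain ⟨a, ha, x, u, hu, e⟩ := h
    rw [dade_apply hD hα ha hu e, dade_apply hD hα ha (x := x * z⁻¹) hu (by rw [← e]; simp [mul_assoc])]
  · rw [dade_eq_zero h, dade_eq_zero (fun h' => h ((inSupp_conj z).1 h'))]

/-- The weight with which a point of the support is counted. -/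
theorem count_eq (hD : DadeHypothesis A L H) [DecidablePred fun a : L => (a : G) ∈ A]
    [∀ a : G, DecidablePred (· ∈ H a)] {g : G} (hg : InSupp A L H g) :
    ∑ a ∈ Finset.univ.filter (fun a : L => (a : G) ∈ A), (Nat.card (H (a : G)) : ℂ)⁻¹ *
      ((Finset.univ.filter fun z : G => (a : G)⁻¹ * (z⁻¹ * g * z) ∈ H (a : G)).card : ℂ) = (Nat.card L : ℂ) := by
  classical
  obtain ⟨a₀, ha₀, x, u₀, hu₀, hx⟩ := hg
  let S : Finset L := Finset.univ.filter fun a : L => (a : G) ∈ A
  have hset : ∀ a : L, (a : G) ∈ A → (Finset.univ.filter fun z : G => (a : G)⁻¹ * (z⁻¹ * g * z) ∈ H (a : G)).card =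
      (Finset.univ.filter fun z : G => z⁻¹ * a₀ * z = (a : G)).card := by
    intro a ha
    refine Finset.card_bij' (fun z _ => x * z) (fun z _ => x⁻¹ * z) (fun z hz => ?_) (fun z hz => ?_)
      (fun z _ => by simp) (fun z _ => by simp)
    · simp only [Finset.mem_filter, Finset.mem_univ, true_and] at hz ⊢
      have e : (x * z)⁻¹ * ((a₀ : G) * u₀) * (x * z)⁻¹⁻¹ = (a : G) * ((a : G)⁻¹ * (z⁻¹ * g * z)) := by
        rw [← hx]; simp [mul_assoc]
      have := coset_conj hD ha₀ ha hu₀ hz e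
      simpa using this
    · simp only [Finset.mem_filter, Finset.mem_univ, true_and] at hz ⊢
      have hcA : z⁻¹ * (a₀ : G) * z⁻¹⁻¹ ∈ A := by rw [inv_inv, hz]; exact ha
      obtain ⟨l, hl, hl'⟩ := hD.fusion _ ha₀ z⁻¹ hcA
      rw [inv_inv, hz] at hl'
      have hzl : z * l ∈ Subgroup.centralizer ({(a₀ : G)} : Set G) := mem_centralizer_singleton.2 (by
        have h1 : (a₀ : G) * z = z * a := by rw [← hz]; simp [mul_assoc]
        have h2 : (a : G) * l = l * a₀ := by rw [← hl']; simp [mul_assoc]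
        rw [← mul_assoc, h1, mul_assoc, h2, mul_assoc])
      have e : (a : G)⁻¹ * ((x⁻¹ * z)⁻¹ * g * (x⁻¹ * z)) = l * ((z * l)⁻¹ * u₀ * (z * l)⁻¹⁻¹) * l⁻¹ := by
        rw [show (x⁻¹ * z)⁻¹ * g * (x⁻¹ * z) = z⁻¹ * ((a₀ : G) * u₀) * z by rw [← hx]; simp [mul_assoc],
          show (a : G)⁻¹ = z⁻¹ * (a₀ : G)⁻¹ * z by rw [← hz]; simp [mul_assoc]]
        simp [mul_assoc]
      rw [e]
      have h3 := hD.conj_mem_H _ ha₀ _ (inv_mem hzl) u₀ hu₀
      have h4 := conj_H_le hD ha₀ hl h3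
      rwa [hl'] at h4
  have hHcard : ∀ a : L, (a : G) ∈ A → ∀ z : G, z⁻¹ * a₀ * z = (a : G) →
      Nat.card (H (a : G)) = Nat.card (H (a₀ : G)) := by
    intro a ha z hz
    obtain ⟨l, hl, hl'⟩ := hD.fusion _ ha₀ z⁻¹ (by rw [inv_inv, hz]; exact ha)
    rw [inv_inv, hz] at hl'
    rw [← hl', H_conj hD ha₀ hl, Subgroup.card_map_of_injective (MulAut.conj l).injective]
  have hT : (Finset.univ.filter fun z : G => z⁻¹ * (a₀ : G) * z ∈ A).card = Nat.card (H (a₀ : G)) * Nat.card L := by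
    rw [Nat.card_eq_fintype_card, Nat.card_eq_fintype_card, ← Fintype.card_prod, ← Finset.card_univ]
    symm
    refine Finset.card_bij (fun p _ => (p.1 : G) * (p.2 : G)) (fun p _ => ?_) (fun p _ q _ h => ?_) (fun z hz => ?_)
    · simp only [Finset.mem_filter, Finset.mem_univ, true_and]
      rw [show ((p.1 : G) * p.2)⁻¹ * a₀ * ((p.1 : G) * p.2) = (p.2 : G)⁻¹ * ((p.1 : G)⁻¹ * ((a₀ : G) * p.1)) * p.2 by
        simp [mul_assoc], (commute_of_mem_H hD ha₀ p.1.2).eq, inv_mul_cancel_left]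
      have := hD.conj_mem _ (inv_mem p.2.2) _ ha₀
      simpa using this
    · have hmem : (q.1 : G)⁻¹ * p.1 ∈ H (a₀ : G) ⊓ (L ⊓ Subgroup.centralizer ({(a₀ : G)} : Set G)) := by
        have hm : (q.1 : G)⁻¹ * p.1 ∈ H (a₀ : G) := (H (a₀ : G)).mul_mem ((H (a₀ : G)).inv_mem q.1.2) p.1.2
        refine ⟨hm, ?_, hD.le_centralizer _ ha₀ hm⟩
        rw [show (q.1 : G)⁻¹ * p.1 = (q.2 : G) * (p.2 : G)⁻¹ by
          rw [eq_mul_inv_iff_mul_eq, mul_assoc, h, inv_mul_cancel_left]]
        exact L.mul_mem q.2.2 (L.inv_mem p.2.2)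
      rw [hD.inf_eq_bot _ ha₀, Subgroup.mem_bot, inv_mul_eq_one] at hmem
      exact Prod.ext (Subtype.ext hmem.symm) (Subtype.ext (mul_left_cancel (hmem ▸ h)))
    · simp only [Finset.mem_filter, Finset.mem_univ, true_and] at hz
      obtain ⟨l, hl, hl'⟩ := hD.fusion _ ha₀ z⁻¹ (by rwa [inv_inv])
      rw [inv_inv] at hl'
      have hzl : z * l ∈ Subgroup.centralizer ({(a₀ : G)} : Set G) := mem_centralizer_singleton.2 (by
        have h2 : (z⁻¹ * a₀ * z) * l = l * a₀ := by rw [← hl']; simp [mul_assoc]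
        calc (a₀ : G) * (z * l) = z * ((z⁻¹ * a₀ * z) * l) := by simp [mul_assoc]
          _ = z * l * a₀ := by rw [h2]; simp [mul_assoc])
      obtain ⟨v, hv, m, hm, hzm⟩ := centralizer_factor hD ha₀ hzl
      exact ⟨(⟨v, hv⟩, ⟨m * l⁻¹, mul_mem hm.1 (inv_mem hl)⟩), Finset.mem_univ _, by
        rw [← mul_assoc, ← hzm, mul_inv_cancel_right]⟩
  calc ∑ a ∈ S, (Nat.card (H (a : G)) : ℂ)⁻¹ *
        ((Finset.univ.filter fun z : G => (a : G)⁻¹ * (z⁻¹ * g * z) ∈ H (a : G)).card : ℂ)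
      = ∑ a ∈ S, (Nat.card (H (a₀ : G)) : ℂ)⁻¹ *
        ((Finset.univ.filter fun z : G => z⁻¹ * a₀ * z = (a : G)).card : ℂ) := by
        refine Finset.sum_congr rfl fun a ha => ?_
        have ha' : (a : G) ∈ A := (Finset.mem_filter.1 ha).2
        rw [hset a ha']
        by_cases h0 : (Finset.univ.filter fun z : G => z⁻¹ * a₀ * z = (a : G)).card = 0
        · simp [h0]
        · obtain ⟨z, hz⟩ := Finset.card_pos.1 (Nat.pos_of_ne_zero h0)
          rw [hHcard a ha' z (Finset.mem_filter.1 hz).2]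
    _ = (Nat.card (H (a₀ : G)) : ℂ)⁻¹ *
        ((Finset.univ.filter fun z : G => z⁻¹ * (a₀ : G) * z ∈ A).card : ℂ) := by
        rw [← Finset.mul_sum, ← Nat.cast_sum]
        congr 2
        rw [← Finset.card_biUnion]
        · congr 1
          ext z
          simp only [Finset.mem_biUnion, Finset.mem_filter, Finset.mem_univ, true_and, S]
          exact ⟨fun ⟨a, ha, e⟩ => e ▸ ha, fun hz => ⟨⟨_, hD.subset hz⟩, hz, rfl⟩⟩
        · intro a _ b _ hab
          rw [Function.onFun, Finset.disjoint_left]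
          intro z hz hz'
          exact hab (Subtype.ext ((Finset.mem_filter.1 hz).2.symm.trans (Finset.mem_filter.1 hz').2))
    _ = _ := by
        rw [hT, Nat.cast_mul, inv_mul_cancel_left₀ (Nat.cast_ne_zero.2 Nat.card_pos.ne')]

/-- The sum of a class function over the support of the Dade map. -/
theorem sum_supp (hD : DadeHypothesis A L H) {F : G → ℂ} (hF : IsClassFunction G F)
    (h0 : ∀ g, ¬ InSupp A L H g → F g = 0) [DecidablePred fun a : L => (a : G) ∈ A] [∀ a : G, Fintype (H a)] :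
    (Nat.card G : ℂ)⁻¹ * ∑ g : G, F g =
      (Nat.card L : ℂ)⁻¹ * ∑ a ∈ Finset.univ.filter (fun a : L => (a : G) ∈ A), avg (H (a : G)) F a := by
  classical
  have hG : (Nat.card G : ℂ) ≠ 0 := Nat.cast_ne_zero.2 Nat.card_pos.ne'
  have hL : (Nat.card L : ℂ) ≠ 0 := Nat.cast_ne_zero.2 Nat.card_pos.ne'
  let w : G → ℂ := fun g => ∑ a ∈ Finset.univ.filter (fun a : L => (a : G) ∈ A), (Nat.card (H (a : G)) : ℂ)⁻¹ *
      ((Finset.univ.filter fun z : G => (a : G)⁻¹ * (z⁻¹ * g * z) ∈ H (a : G)).card : ℂ)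
  have h1 : ∑ g : G, F g * w g = (Nat.card L : ℂ) * ∑ g : G, F g := by
    rw [Finset.mul_sum]
    refine Finset.sum_congr rfl fun g _ => ?_
    by_cases hg : InSupp A L H g
    · simp only [w]
      rw [count_eq hD hg, mul_comm]
    · rw [h0 g hg, zero_mul, mul_zero]
  have h2 : ∑ g : G, F g * w g =
      (Nat.card G : ℂ) * ∑ a ∈ Finset.univ.filter (fun a : L => (a : G) ∈ A), avg (H (a : G)) F a := by
    simp only [w, Finset.mul_sum, avg]
    rw [Finset.sum_comm]
    refine Finset.sum_congr rfl fun a ha => ?_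
    have ha' : (a : G) ∈ A := (Finset.mem_filter.1 ha).2
    rw [← Finset.mul_sum, ← Finset.mul_sum]
    simp only [Finset.card_filter, Nat.cast_sum, Finset.mul_sum]
    rw [Finset.sum_comm]
    rw [Finset.sum_congr rfl (g := fun _ => ∑ u : H (a : G), (Nat.card (H (a : G)) : ℂ)⁻¹ * F ((u : G) * a)) ?_,
      Finset.sum_const, Finset.card_univ, ← Nat.card_eq_fintype_card, nsmul_eq_mul]
    · simp only [Finset.mul_sum]
    intro z _
    refine (Finset.sum_bij_ne_zero (fun (u : H (a : G)) _ _ => z * ((a : G) * u) * z⁻¹) (fun _ _ _ => Finset.mem_univ _)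
      (fun u _ _ v _ _ h => Subtype.ext (mul_left_cancel (mul_left_cancel (mul_right_cancel h)))) ?_ ?_).symm
    · intro g _ hg
      have hmem : (a : G)⁻¹ * (z⁻¹ * g * z) ∈ H (a : G) := by
        by_contra hn; simp [hn] at hg
      refine ⟨⟨_, hmem⟩, Finset.mem_univ _, ?_, by simp [mul_assoc]⟩
      have hc : (a : G)⁻¹ * (z⁻¹ * g * z) * a = z⁻¹ * g * z := by
        rw [← (commute_of_mem_H hD ha' hmem).eq, mul_inv_cancel_left]
      show _ ≠ (0 : ℂ)
      intro he
      apply hg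
      rw [hc] at he
      rw [if_pos hmem]
      have hFg : F (z⁻¹ * g * z) = F g := by simpa using hF g z⁻¹
      rw [hFg] at he
      push_cast
      linear_combination he
    · intro u _ _
      have hmem : (a : G)⁻¹ * (z⁻¹ * (z * ((a : G) * u) * z⁻¹) * z) = u := by simp [mul_assoc]
      rw [hmem, if_pos u.2, hF, (commute_of_mem_H hD ha' u.2).eq]
      push_cast
      ring
  rw [h2] at h1
  rw [inv_mul_eq_iff_eq_mul₀ hG]
  rw [← mul_assoc, mul_comm (Nat.card G : ℂ), mul_assoc, h1, inv_mul_cancel_left₀ hL]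

/-- The adjoint of the Dade map is averaging. -/
theorem inner_dade (hD : DadeHypothesis A L H) {α : L → ℂ} (hα : IsClassFunction L α)
    (hαA : ∀ x : L, (x : G) ∉ A → α x = 0) {χ : G → ℂ} (hχ : IsClassFunction G χ) [∀ a : G, Fintype (H a)] :
    classInner (dadeIsometry A L H α) χ = (Nat.card L : ℂ)⁻¹ * ∑ a : L, α a * conj (avg (H (a : G)) χ a) := by
  classical
  rw [classInner_eq, sum_supp hD (fun g x => by rw [dade_isClassFunction hD hα g x, hχ g x])
    (fun g hg => by rw [dade_eq_zero hg, zero_mul]), Finset.sum_filter]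
  congr 1
  refine Finset.sum_congr rfl fun a _ => ?_
  split_ifs with ha
  · simp only [avg, map_mul, map_inv₀, Complex.conj_natCast, map_sum, dade_coset hD hα ha, ← Finset.mul_sum]
    ring
  · rw [hαA a ha, zero_mul]

theorem avg_dade (hD : DadeHypothesis A L H) {β : L → ℂ} (hβ : IsClassFunction L β) {a : L} (ha : (a : G) ∈ A)
    [Fintype (H (a : G))] : avg (H (a : G)) (dadeIsometry A L H β) a = β a := by
  simp only [avg, dade_coset hD hβ ha, Finset.sum_const, Finset.card_univ, nsmul_eq_mul, Nat.card_eq_fintype_card]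
  rw [inv_mul_cancel_left₀ (Nat.cast_ne_zero.2 Fintype.card_ne_zero)]

theorem isometry (hD : DadeHypothesis A L H) {α β : L → ℂ} (hα : IsClassFunction L α)
    (hαA : ∀ x : L, (x : G) ∉ A → α x = 0) (hβ : IsClassFunction L β) :
    classInner (dadeIsometry A L H α) (dadeIsometry A L H β) = classInner α β := by
  classical
  haveI : ∀ a : G, Fintype (H a) := fun a => Fintype.ofFinite _
  rw [inner_dade hD hα hαA (dade_isClassFunction hD hβ), classInner_eq]
  congr 1
  refine Finset.sum_congr rfl fun a _ => ?_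
  by_cases ha : (a : G) ∈ A
  · rw [avg_dade hD hβ ha]
  · rw [hαA a ha, zero_mul, zero_mul]

end CfsgLib.DadeMap
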