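import Cfsg.Agent.OddChar.DadeMap
import Cfsg.Agent.CharBasics.Extra

/-!
# The Dade map sends virtual characters to virtual characters

The pairing with an irreducible character is an alternating sum over the subsets `B` of `A`; the terms for
`B` and for `B` with `n` adjoined or removed cancel.
-/

set_option autoImplicit false
set_option linter.style.haveILetI false
set_option linter.unusedSectionVars false

namespace CfsgLib.DadeMap

open Cfsg CfsgLib.CharBasics CfsgLib.OddChar CfsgLib.Exceptional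
open scoped ComplexConjugate Pointwise

universe u

variable {G : Type u} [Group G] [Fintype G]

theorem avg_congr {K K' : Subgroup G} [Fintype K] [Fintype K'] (h : K = K') (F : G → ℂ) (a : G) :
    avg K F a = avg K' F a := by
  subst h; simp only [avg]; congr 2; ext; simp

/-- Averages over a coset of a normalised subgroup of coprime order reduce to its centralizer. -/
theorem avg_coprime (K C : Subgroup G) [Fintype K] [Fintype C] (n : G)
    (hn : n ∈ Subgroup.normalizer (K : Set G)) (hcop : Nat.Coprime (orderOf n) (Nat.card K))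
    (hC : ∀ c, c ∈ C ↔ c ∈ K ∧ c * n = n * c) {F : G → ℂ} (hF : IsClassFunction G F) :
    avg K F n = avg C F n := by
  classical
  have hnorm : ∀ x ∈ K, n * x * n⁻¹ ∈ K := fun x hx => (Subgroup.mem_normalizer_iff.1 hn x).1 hx
  let Φ : K × C → K := fun p =>
    ⟨(p.1 : G)⁻¹ * p.2 * (n * p.1 * n⁻¹), K.mul_mem (K.mul_mem (K.inv_mem p.1.2) ((hC _).1 p.2.2).1) (hnorm _ p.1.2)⟩
  have hΦ : ∀ p, (Φ p : G) * n = (p.1 : G)⁻¹ * ((p.2 : G) * n) * p.1 := fun p => by simp [Φ, mul_assoc]
  have hfib : ∀ k : K, (Finset.univ.filter fun p => Φ p = k).card = Nat.card C := by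
    intro k
    obtain ⟨x, hx, c, hc, hcn, hxc⟩ := coprime_coset_conj K n hn hcop k k.2
    have hcC : c ∈ C := (hC c).2 ⟨hc, hcn⟩
    rw [Nat.card_eq_fintype_card, ← Finset.card_univ]
    symm
    refine Finset.card_bij (fun y _ => ((⟨(y : G) * x, K.mul_mem ((hC _).1 y.2).1 hx⟩ : K),
      (⟨(y : G) * c * (y : G)⁻¹, C.mul_mem (C.mul_mem y.2 hcC) (C.inv_mem y.2)⟩ : C))) ?_ ?_ ?_
    · intro y _
      refine Finset.mem_filter.2 ⟨Finset.mem_univ _, Subtype.ext (mul_right_cancel (b := n) ?_)⟩
      rw [hΦ]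
      have hy : Commute (y : G) n := ((hC _).1 y.2).2
      have e : (k : G) * n = x⁻¹ * (c * n) * x := by rw [← hxc]; simp [mul_assoc]
      rw [e]
      simp only [mul_inv_rev, mul_assoc]
      rw [← mul_assoc n (y : G), ← hy.eq, mul_assoc, inv_mul_cancel_left, inv_mul_cancel_left]
    · intro a _ b _ h
      have := congrArg (fun q : K × C => (q.1 : G)) h
      exact Subtype.ext (mul_right_cancel this)
    · rintro ⟨p, d⟩ hp
      have e : (p : G)⁻¹ * ((d : G) * n) * p = x⁻¹ * (c * n) * x := by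
        rw [← hΦ (p, d), (Finset.mem_filter.1 hp).2, ← hxc]; simp [mul_assoc]
      have e' : ((p : G) * x⁻¹) * (n * c) * ((p : G) * x⁻¹)⁻¹ = n * d := by
        rw [← hcn, ← ((hC _).1 d.2).2]
        calc (p : G) * x⁻¹ * (c * n) * ((p : G) * x⁻¹)⁻¹ = p * (x⁻¹ * (c * n) * x) * (p : G)⁻¹ := by
              simp [mul_assoc]
          _ = (d : G) * n := by rw [← e]; simp [mul_assoc]
      have h1 := conj_strip (show Commute n c from hcn.symm) (show Commute n (d : G) from ((hC _).1 d.2).2.symm)
        hcop dvd_rfl dvd_rfl (Subgroup.orderOf_dvd_natCard _ hc) (Subgroup.orderOf_dvd_natCard _ ((hC _).1 d.2).1) e'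
      have hy : (p : G) * x⁻¹ ∈ C := (hC _).2 ⟨K.mul_mem p.2 (K.inv_mem hx), mul_inv_eq_iff_eq_mul.1 h1⟩
      refine ⟨⟨_, hy⟩, Finset.mem_univ _, Prod.ext (Subtype.ext (inv_mul_cancel_right _ _)) (Subtype.ext ?_)⟩
      show (p : G) * x⁻¹ * c * ((p : G) * x⁻¹)⁻¹ = d
      refine mul_left_cancel (a := n) ?_
      rw [← e', ← mul_assoc ((p : G) * x⁻¹) n c, (((hC _).1 hy).2)]
      simp [mul_assoc]
  have h1 : ∑ p : K × C, F ((p.1 : G)⁻¹ * ((p.2 : G) * n) * p.1) = (Nat.card K : ℂ) * ∑ c : C, F ((c : G) * n) := by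
    rw [Fintype.sum_prod_type, Finset.sum_congr rfl (g := fun _ => ∑ c : C, F ((c : G) * n)) fun x _ =>
      Finset.sum_congr rfl fun c _ => by simpa using hF ((c : G) * n) (x : G)⁻¹,
      Finset.sum_const, Finset.card_univ, ← Nat.card_eq_fintype_card, nsmul_eq_mul]
  have h2 : ∑ p : K × C, F ((p.1 : G)⁻¹ * ((p.2 : G) * n) * p.1) = (Nat.card C : ℂ) * ∑ k : K, F ((k : G) * n) := by
    rw [← Finset.sum_fiberwise Finset.univ Φ, Finset.mul_sum]
    refine Finset.sum_congr rfl fun k _ => ?_
    rw [Finset.sum_congr rfl (g := fun _ => F ((k : G) * n)) (fun p hp => by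
      rw [← hΦ, (Finset.mem_filter.1 hp).2]), Finset.sum_const, hfib, nsmul_eq_mul]
  have hK : (Nat.card K : ℂ) ≠ 0 := Nat.cast_ne_zero.2 Nat.card_pos.ne'
  have hC0 : (Nat.card C : ℂ) ≠ 0 := Nat.cast_ne_zero.2 Nat.card_pos.ne'
  simp only [avg]
  field_simp
  linear_combination h2.symm.trans h1

/-- The pairing of a virtual character of `N` with the averaged restriction of a character is integral. -/
theorem avg_pair_int (K N : Subgroup G) [Fintype K] [Fintype N] (hNK : N ≤ Subgroup.normalizer (K : Set G))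
    {θ : N → ℂ} (hθ : IsGeneralizedCharacter N θ) {ψ : G → ℂ} (hψ : IsCharacter G ψ) :
    ∃ m : ℤ, (Nat.card N : ℂ)⁻¹ * ∑ n : N, θ n * conj (avg K ψ n) = m := by
  classical
  let φ : N →* MulAut K :=
    { toFun := fun n =>
        { toFun := fun k => ⟨n * k * (n : G)⁻¹, (Subgroup.mem_normalizer_iff.1 (hNK n.2) _).1 k.2⟩
          invFun := fun k => ⟨(n : G)⁻¹ * k * n, by
            have := (Subgroup.mem_normalizer_iff.1 (hNK (N.inv_mem n.2)) _).1 k.2
            simpa using this⟩
          left_inv := fun k => Subtype.ext (by simp [mul_assoc])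
          right_inv := fun k => Subtype.ext (by simp [mul_assoc])
          map_mul' := fun a b => Subtype.ext (by simp [mul_assoc]) }
      map_one' := MulEquiv.ext fun k => Subtype.ext (by simp)
      map_mul' := fun a b => MulEquiv.ext fun k => Subtype.ext (by simp [mul_assoc]) }
  let f : K ⋊[φ] N →* G := SemidirectProduct.lift K.subtype N.subtype fun n => MonoidHom.ext fun k => rfl
  haveI : Fintype (K ⋊[φ] N) := Fintype.ofEquiv _ SemidirectProduct.equivProd.symm
  have hval : ∀ ξ : N → ℂ, (Nat.card N : ℂ)⁻¹ * ∑ n : N, ξ n * conj (avg K ψ n) =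
      classInner (fun x : K ⋊[φ] N => ξ (SemidirectProduct.rightHom x)) (fun x => ψ (f x)) := by
    intro ξ
    rw [classInner_eq, SemidirectProduct.card, Nat.cast_mul, mul_inv,
      ← SemidirectProduct.equivProd.symm.sum_comp (fun x : K ⋊[φ] N => ξ (SemidirectProduct.rightHom x) * conj (ψ (f x))),
      Fintype.sum_prod_type, Finset.sum_comm, Finset.mul_sum, Finset.mul_sum]
    refine Finset.sum_congr rfl fun n _ => ?_
    simp only [avg, map_mul, map_inv₀, Complex.conj_natCast, map_sum, Finset.mul_sum]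
    refine Finset.sum_congr rfl fun k _ => ?_
    have e : f (SemidirectProduct.equivProd.symm (k, n)) = (k : G) * n := rfl
    have e' : SemidirectProduct.rightHom (SemidirectProduct.equivProd.symm (k, n) : K ⋊[φ] N) = n := rfl
    rw [e, e']; ring
  obtain ⟨a, b, ha, hb, rfl⟩ := hθ
  obtain ⟨m, hm⟩ := classInner_characters_nat (isCharacter_comp ha SemidirectProduct.rightHom) (isCharacter_comp hψ f)
  obtain ⟨m', hm'⟩ := classInner_characters_nat (isCharacter_comp hb SemidirectProduct.rightHom) (isCharacter_comp hψ f)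
  refine ⟨(m : ℤ) - m', ?_⟩
  rw [hval]
  show classInner ((fun x : K ⋊[φ] N => a (SemidirectProduct.rightHom x)) -
    fun x : K ⋊[φ] N => b (SemidirectProduct.rightHom x)) _ = _
  rw [Exceptional.classInner_sub_left, hm, hm']
  push_cast; rfl

variable {A : Set G} {L : Subgroup G} [Fintype L] {H : G → Subgroup G}

/-- The intersection of the subgroups attached to the members of `B`. -/
def HB (H : G → Subgroup G) (B : Finset L) : Subgroup G := ⨅ b ∈ B, H (b : G)

theorem mem_HB {B : Finset L} {u : G} : u ∈ HB H B ↔ ∀ b ∈ B, u ∈ H (b : G) := by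
  simp [HB, Subgroup.mem_iInf]

theorem toConjAct_smul_val (x b : L) :
    ((ConjAct.toConjAct x • b : L) : G) = (x : G) * b * (x : G)⁻¹ := by
  simp [ConjAct.toConjAct_smul]

variable [DecidableEq L]

theorem HB_conj (hD : DadeHypothesis A L H) {B : Finset L} (hB : ∀ b ∈ B, (b : G) ∈ A) (x : L) {u : G}
    (hu : u ∈ HB H B) : (x : G) * u * (x : G)⁻¹ ∈ HB H (ConjAct.toConjAct x • B) := by
  rw [mem_HB] at hu ⊢
  intro b hb
  obtain ⟨c, hc, rfl⟩ := Finset.mem_smul_finset.1 hb
  rw [toConjAct_smul_val]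
  exact conj_H_le hD (hB c hc) x.2 (hu c hc)

theorem smul_subset_A (hD : DadeHypothesis A L H) {B : Finset L} (hB : ∀ b ∈ B, (b : G) ∈ A) (x : L) :
    ∀ b ∈ ConjAct.toConjAct x • B, (b : G) ∈ A := fun b hb => by
  obtain ⟨c, hc, rfl⟩ := Finset.mem_smul_finset.1 hb
  rw [toConjAct_smul_val]
  exact hD.conj_mem _ x.2 _ (hB c hc)

open scoped Classical in
/-- The signed contribution of the pair `(B, n)`. -/
noncomputable def term (H : G → Subgroup G) (α : L → ℂ) (ψ : G → ℂ) (B : Finset L) (n : L) : ℂ :=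
  (-1) ^ (B.card + 1) * (α n * conj (avg (HB H B) ψ (n : G)))

open scoped Classical in
theorem pair_sum (hD : DadeHypothesis A L H) {α : L → ℂ} {ψ : G → ℂ} (hψ : IsClassFunction G ψ)
    [∀ a : G, Fintype (H a)] {n : L} (hn : (n : G) ∈ A) :
    ∑ B ∈ ((Finset.univ.filter fun a : L => (a : G) ∈ A).powerset.filter fun B =>
        B.Nonempty ∧ ConjAct.toConjAct n • B = B), term H α ψ B n = α n * conj (avg (H (n : G)) ψ n) := by
  set Ω := Finset.univ.filter fun a : L => (a : G) ∈ A with hΩ
  set P := Ω.powerset.filter fun B => B.Nonempty ∧ ConjAct.toConjAct n • B = B with hP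
  have hnn : ConjAct.toConjAct n • n = n := by simp [ConjAct.toConjAct_smul]
  have hfix : ∀ {B : Finset L}, ConjAct.toConjAct n • B = B →
      ConjAct.toConjAct n • insert n B = insert n B ∧ ConjAct.toConjAct n • B.erase n = B.erase n := by
    intro B h
    constructor
    · rw [Finset.smul_finset_insert, hnn, h]
    · ext b
      rw [Finset.mem_smul_finset, Finset.mem_erase]
      constructor
      · rintro ⟨c, hc, rfl⟩
        obtain ⟨hcn, hc⟩ := Finset.mem_erase.1 hc
        refine ⟨fun e => hcn (MulAction.injective _ (e.trans hnn.symm)), ?_⟩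
        rw [← h]; exact Finset.smul_mem_smul_finset hc
      · rintro ⟨hbn, hb⟩
        rw [← h] at hb
        obtain ⟨c, hc, rfl⟩ := Finset.mem_smul_finset.1 hb
        exact ⟨c, Finset.mem_erase.2 ⟨fun e => hbn (by rw [e, hnn]), hc⟩, rfl⟩
  have hsingle : {n} ∈ P := by
    simp only [hP, Finset.mem_filter, Finset.mem_powerset, Finset.singleton_subset_iff, hΩ, Finset.mem_univ, true_and]
    exact ⟨hn, Finset.singleton_nonempty _, by rw [Finset.smul_finset_singleton, hnn]⟩
  have hkey : ∀ B ∈ P, n ∉ B → term H α ψ (insert n B) n = -term H α ψ B n := by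
    intro B hB hnB
    obtain ⟨hsub, hne, hst⟩ := Finset.mem_filter.1 hB
    rw [Finset.mem_powerset] at hsub
    have hBA : ∀ b ∈ B, (b : G) ∈ A := fun b hb => (Finset.mem_filter.1 (hsub hb)).2
    have e : avg (HB H B) ψ (n : G) = avg (HB H (insert n B)) ψ (n : G) := by
      obtain ⟨b₀, hb₀⟩ := hne
      refine avg_coprime _ _ _ ?_ ?_ (fun c => ?_) hψ
      · rw [Subgroup.mem_normalizer_iff]
        have h1 : ∀ u ∈ HB H B, (n : G) * u * (n : G)⁻¹ ∈ HB H B := fun u hu => by
          have := HB_conj hD hBA n hu; rwa [hst] at this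
        refine fun u => ⟨h1 u, fun hu => ?_⟩
        have hst' : ConjAct.toConjAct n⁻¹ • B = B := by rw [map_inv, inv_smul_eq_iff, hst]
        have := HB_conj hD hBA n⁻¹ hu
        rw [hst'] at this
        simpa [mul_assoc] using this
      · refine ((hD.coprime _ (hBA b₀ hb₀) _ hn).symm.coprime_dvd_left (orderOf_dvd_CL hD hn)).coprime_dvd_right ?_
        exact Subgroup.card_dvd_of_le fun u hu => mem_HB.1 hu b₀ hb₀
      · simp only [mem_HB, Finset.forall_mem_insert]
        constructor
        · rintro ⟨h1, h2⟩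
          exact ⟨h2, (commute_of_mem_H hD hn h1).eq.symm⟩
        · rintro ⟨h2, h1⟩
          refine ⟨mem_H_of_coprime hD hn (mem_centralizer_singleton.2 h1.symm) (n := Nat.card (H (b₀ : G)))
            (orderOf_dvd_iff_pow_eq_one.1 (Subgroup.orderOf_dvd_natCard _ (h2 b₀ hb₀)))
            (hD.coprime _ (hBA b₀ hb₀) _ hn), h2⟩
    rw [term, term, e, Finset.card_insert_of_notMem hnB, pow_succ]
    ring
  rw [← Finset.add_sum_erase _ _ hsingle]
  have hzero : ∑ B ∈ P.erase {n}, term H α ψ B n = 0 := by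
    refine Finset.sum_involution (fun B _ => if n ∈ B then B.erase n else insert n B) ?_ ?_ ?_ ?_
    · intro B hB
      obtain ⟨hne1, hB⟩ := Finset.mem_erase.1 hB
      obtain ⟨hsub, hne, hst⟩ := Finset.mem_filter.1 hB
      by_cases hnB : n ∈ B
      · rw [if_pos hnB]
        have hB' : B.erase n ∈ P := by
          refine Finset.mem_filter.2 ⟨Finset.mem_powerset.2 ((Finset.erase_subset _ _).trans (Finset.mem_powerset.1 hsub)),
            ?_, (hfix hst).2⟩
          rw [Finset.nonempty_iff_ne_empty]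
          intro h
          rcases (Finset.erase_eq_empty_iff _ _).1 h with h1 | h1
          · exact hne.ne_empty h1
          · exact hne1 h1
        have := hkey _ hB' (Finset.notMem_erase n B)
        rw [Finset.insert_erase hnB] at this
        rw [this, neg_add_cancel]
      · rw [if_neg hnB, hkey B hB hnB, add_neg_cancel]
    · intro B hB _
      by_cases hnB : n ∈ B
      · rw [if_pos hnB]; exact fun h => Finset.notMem_erase n B (h.symm ▸ hnB)
      · rw [if_neg hnB]; exact fun h => hnB (h ▸ Finset.mem_insert_self n B)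
    · intro B hB
      obtain ⟨hne1, hB⟩ := Finset.mem_erase.1 hB
      obtain ⟨hsub, hne, hst⟩ := Finset.mem_filter.1 hB
      rw [Finset.mem_powerset] at hsub
      by_cases hnB : n ∈ B
      · rw [if_pos hnB]
        refine Finset.mem_erase.2 ⟨fun h => Finset.notMem_erase n B (by rw [h]; exact Finset.mem_singleton_self n),
          Finset.mem_filter.2 ⟨Finset.mem_powerset.2 ((Finset.erase_subset _ _).trans hsub), ?_, (hfix hst).2⟩⟩
        rw [Finset.nonempty_iff_ne_empty]
        intro h
        rcases (Finset.erase_eq_empty_iff _ _).1 h with h1 | h1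
        · exact hne.ne_empty h1
        · exact hne1 h1
      · rw [if_neg hnB]
        refine Finset.mem_erase.2 ⟨fun h => ?_, Finset.mem_filter.2 ⟨Finset.mem_powerset.2
          (Finset.insert_subset (Finset.mem_filter.2 ⟨Finset.mem_univ _, hn⟩) hsub), Finset.insert_nonempty _ _, (hfix hst).1⟩⟩
        obtain ⟨b, hb⟩ := hne
        have hb1 : b = n := Finset.mem_singleton.1 (h ▸ Finset.mem_insert_of_mem hb)
        exact hnB (hb1 ▸ hb)
    · intro B hB
      by_cases hnB : n ∈ B
      · simp only [if_pos hnB, Finset.notMem_erase, if_false, Finset.insert_erase hnB]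
      · simp only [if_neg hnB, Finset.mem_insert_self, if_true, Finset.erase_insert hnB]
  have hHB1 : HB H ({n} : Finset L) = H (n : G) := by ext u; simp [mem_HB]
  rw [hzero, add_zero, term, Finset.card_singleton]
  have e : avg (HB H ({n} : Finset L)) ψ (n : G) = avg (H (n : G)) ψ n := by
    exact avg_congr hHB1 _ _
  rw [e]; ring

open scoped Classical in
/-- The pairing with an irreducible character is an integer. -/
theorem dade_inner_int (hD : DadeHypothesis A L H) {α : L → ℂ} (hα : IsGeneralizedCharacter L α)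
    (hαA : ∀ x : L, (x : G) ∉ A → α x = 0) (χ : IrrCharacter G) :
    ∃ m : ℤ, classInner (dadeIsometry A L H α) (χ : G → ℂ) = m := by
  haveI : ∀ a : G, Fintype (H a) := fun a => Fintype.ofFinite _
  have hαc := gen_isClassFunction hα
  have hψ := irr_isClassFunction χ.2
  set Ω := Finset.univ.filter fun a : L => (a : G) ∈ A with hΩ
  set Q := Ω.powerset.filter Finset.Nonempty with hQ
  let S : Finset L → ℂ := fun B =>
    ∑ n ∈ Finset.univ.filter (fun n : L => ConjAct.toConjAct n • B = B), term H α (χ : G → ℂ) B n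
  have hQA : ∀ B ∈ Q, ∀ b ∈ B, (b : G) ∈ A := fun B hB b hb =>
    (Finset.mem_filter.1 (Finset.mem_powerset.1 (Finset.mem_filter.1 hB).1 hb)).2
  have hsmulQ : ∀ B ∈ Q, ∀ x : L, ConjAct.toConjAct x • B ∈ Q := fun B hB x =>
    Finset.mem_filter.2 ⟨Finset.mem_powerset.2 fun b hb =>
      Finset.mem_filter.2 ⟨Finset.mem_univ _, smul_subset_A hD (hQA B hB) x b hb⟩,
      (Finset.mem_filter.1 hB).2.smul_finset⟩
  -- conjugation invariance
  have hinv : ∀ B ∈ Q, ∀ x : L, S (ConjAct.toConjAct x • B) = S B := by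
    intro B hB x
    refine (Finset.sum_bij' (fun n _ => x * n * x⁻¹) (fun n _ => x⁻¹ * n * x) ?_ ?_ (fun n _ => by simp [mul_assoc])
      (fun n _ => by simp [mul_assoc]) fun n hn => ?_).symm
    · intro n hn
      simp only [Finset.mem_filter, Finset.mem_univ, true_and, map_mul, map_inv, mul_smul, inv_smul_smul] at hn ⊢
      rw [hn]
    · intro n hn
      simp only [Finset.mem_filter, Finset.mem_univ, true_and, map_mul, map_inv, mul_smul] at hn ⊢
      rw [hn, inv_smul_smul]
    · simp only [term, Finset.card_smul_finset, hαc n x]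
      congr 3
      simp only [avg]
      have hmem : ∀ u, u ∈ HB H B ↔ (x : G) * u * (x : G)⁻¹ ∈ HB H (ConjAct.toConjAct x • B) := fun u =>
        ⟨HB_conj hD (hQA B hB) x, fun hu => by
          have := HB_conj hD (hQA _ (hsmulQ B hB x)) x⁻¹ hu
          rw [map_inv, inv_smul_smul] at this
          simpa [mul_assoc] using this⟩
      let e : HB H B ≃ HB H (ConjAct.toConjAct x • B) :=
        { toFun := fun u => ⟨_, (hmem u).1 u.2⟩
          invFun := fun u => ⟨(x : G)⁻¹ * u * x, (hmem _).2 (by simpa [mul_assoc] using u.2)⟩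
          left_inv := fun u => Subtype.ext (by simp [mul_assoc])
          right_inv := fun u => Subtype.ext (by simp [mul_assoc]) }
      rw [Nat.card_congr e]
      congr 1
      refine Fintype.sum_equiv e _ _ fun u => ?_
      rw [← hψ ((u : G) * n) x]
      refine congrArg (χ : G → ℂ) ?_
      simp [e, mul_assoc]
  -- each orbit gives an integer
  have horb : ∀ B ∈ Q, ∃ m : ℤ, ((MulAction.orbit (ConjAct L) B).toFinset.card : ℂ) * S B = (Nat.card L : ℂ) * m := by
    intro B hB
    let N₀ : Subgroup L := (MulAction.stabilizer (ConjAct L) B).comap ConjAct.toConjAct.toMonoidHom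
    let N : Subgroup G := N₀.map L.subtype
    have hmem : ∀ g : G, g ∈ N ↔ ∃ h : g ∈ L, ConjAct.toConjAct (⟨g, h⟩ : L) • B = B := by
      intro g
      constructor
      · rintro ⟨l, hl, rfl⟩; exact ⟨l.2, hl⟩
      · rintro ⟨hg, hl⟩; exact ⟨⟨g, hg⟩, hl, rfl⟩
    haveI : Fintype N := Fintype.ofFinite _
    have hNK : N ≤ Subgroup.normalizer (HB H B : Set G) := by
      intro g hg
      obtain ⟨hgL, hgB⟩ := (hmem g).1 hg
      rw [Subgroup.mem_normalizer_iff]
      refine fun u => ⟨fun hu => ?_, fun hu => ?_⟩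
      · have := HB_conj hD (hQA B hB) ⟨g, hgL⟩ hu; rwa [hgB] at this
      · have h' : ConjAct.toConjAct (⟨g, hgL⟩ : L)⁻¹ • B = B := by rw [map_inv, inv_smul_eq_iff, hgB]
        have := HB_conj hD (hQA B hB) (⟨g, hgL⟩ : L)⁻¹ hu
        rw [h'] at this
        simpa [mul_assoc] using this
    obtain ⟨a, b, ha, hb, hab⟩ := hα
    have hres : IsGeneralizedCharacter N (fun g : N => α ⟨g, Subgroup.map_subtype_le _ g.2⟩) :=
      ⟨_, _, isCharacter_comp ha (Subgroup.inclusion (Subgroup.map_subtype_le _)),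
        isCharacter_comp hb (Subgroup.inclusion (Subgroup.map_subtype_le _)), by rw [hab]; rfl⟩
    obtain ⟨m, hm⟩ := avg_pair_int (HB H B) N hNK hres (isCharacter_of_irr χ.2)
    have hS : S B = (-1) ^ (B.card + 1) * ((Nat.card N : ℂ) * m) := by
      rw [← hm, mul_inv_cancel_left₀ (Nat.cast_ne_zero.2 Nat.card_pos.ne')]
      simp only [S, term, ← Finset.mul_sum]
      congr 1
      refine Finset.sum_bij (fun n hn => (⟨(n : G), (hmem _).2 ⟨n.2, (Finset.mem_filter.1 hn).2⟩⟩ : N))
        (fun _ _ => Finset.mem_univ _) (fun a _ b _ h => Subtype.ext (congrArg (fun z : N => (z : G)) h)) (fun g _ => ?_)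
        (fun n _ => rfl)
      obtain ⟨h1, h2⟩ := (hmem g).1 g.2
      exact ⟨⟨g, h1⟩, Finset.mem_filter.2 ⟨Finset.mem_univ _, h2⟩, rfl⟩
    have hN : Nat.card N = Nat.card (MulAction.stabilizer (ConjAct L) B) := by
      rw [Subgroup.card_map_of_injective L.subtype_injective]
      exact Nat.card_congr ⟨fun l => ⟨ConjAct.toConjAct l.1, l.2⟩, fun c => ⟨ConjAct.ofConjAct c.1, c.2⟩,
        fun _ => rfl, fun _ => rfl⟩
    have hos := MulAction.card_orbit_mul_card_stabilizer_eq_card_group (ConjAct L) B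
    refine ⟨(-1) ^ (B.card + 1) * m, ?_⟩
    rw [hS, hN, Set.toFinset_card]
    rw [show Nat.card L = Fintype.card (ConjAct L) from by rw [Nat.card_eq_fintype_card]; exact Fintype.card_congr ConjAct.toConjAct.toEquiv,
      ← hos, Nat.card_eq_fintype_card]
    push_cast; ring
  -- sum over orbits
  have hdiv : ∀ T : Finset (Finset L), T ⊆ Q → (∀ B ∈ T, ∀ x : L, ConjAct.toConjAct x • B ∈ T) →
      ∃ m : ℤ, ∑ B ∈ T, S B = (Nat.card L : ℂ) * m := by
    intro T
    induction T using Finset.strongInduction with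
    | _ T ih =>
      intro hTQ hcl
      rcases T.eq_empty_or_nonempty with rfl | ⟨B, hB⟩
      · exact ⟨0, by simp⟩
      set O := (MulAction.orbit (ConjAct L) B).toFinset with hO
      have hOT : O ⊆ T := fun C hC => by
        obtain ⟨x, rfl⟩ := Set.mem_toFinset.1 hC
        exact hcl B hB (ConjAct.ofConjAct x)
      obtain ⟨m₁, hm₁⟩ := ih (T \ O) (Finset.sdiff_ssubset hOT ⟨B, Set.mem_toFinset.2 (MulAction.mem_orbit_self B)⟩)
        (Finset.sdiff_subset.trans hTQ) (fun C hC x => by
          obtain ⟨hC1, hC2⟩ := Finset.mem_sdiff.1 hC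
          refine Finset.mem_sdiff.2 ⟨hcl C hC1 x, fun h => hC2 (Set.mem_toFinset.2 ?_)⟩
          obtain ⟨y, hy⟩ := Set.mem_toFinset.1 h
          exact ⟨(ConjAct.toConjAct x)⁻¹ * y, by simp only [mul_smul] at hy ⊢; rw [hy, inv_smul_smul]⟩)
      obtain ⟨m₂, hm₂⟩ := horb B (hTQ hB)
      refine ⟨m₁ + m₂, ?_⟩
      rw [← Finset.sum_sdiff hOT, hm₁, Finset.sum_congr rfl (g := fun _ => S B) (fun C hC => ?_),
        Finset.sum_const, nsmul_eq_mul, hm₂]
      · push_cast; ring
      · obtain ⟨x, rfl⟩ := Set.mem_toFinset.1 hC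
        exact hinv B (hTQ hB) (ConjAct.ofConjAct x)
  obtain ⟨m, hm⟩ := hdiv Q subset_rfl hsmulQ
  refine ⟨m, ?_⟩
  rw [inner_dade hD hαc hαA hψ, inv_mul_eq_iff_eq_mul₀ (Nat.cast_ne_zero.2 Nat.card_pos.ne'), ← hm]
  simp only [S, Finset.sum_filter (s := (Finset.univ : Finset L))]
  rw [Finset.sum_comm]
  refine Finset.sum_congr rfl fun n _ => ?_
  rw [← Finset.sum_filter, hQ, Finset.filter_filter]
  by_cases hn : (n : G) ∈ A
  · exact (pair_sum hD hψ hn).symm
  · rw [hαA n hn, zero_mul]
    exact (Finset.sum_eq_zero fun B _ => by simp [term, hαA n hn]).symm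

/-- The image of a virtual character supported on `A` is a virtual character. -/
theorem dade_gen (hD : DadeHypothesis A L H) {α : L → ℂ} (hα : IsGeneralizedCharacter L α)
    (hαA : ∀ x : L, (x : G) ∉ A → α x = 0) : IsGeneralizedCharacter G (dadeIsometry A L H α) :=
  gen_of_inner_int (dade_isClassFunction hD (gen_isClassFunction hα)) fun χ => by
    classical exact dade_inner_int hD hα hαA χ

end CfsgLib.DadeMap
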